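import Cfsg.Agent.H6.S5.A2

/-! Characters over a central character; abelian subgroups which are self-centralising modulo a
central subgroup. -/

set_option autoImplicit false
set_option linter.unusedSectionVars false

namespace Cfsg.Agent.H6.U5

open Cfsg Finset H1 H2 H4.CA Subgroup
open scoped ComplexConjugate Classical

universe u

variable {G : Type u} [Group G] [Fintype G] {T B : Subgroup G}

theorem exists_cen (hB : B ≤ center G) {χ : G → ℂ} (h : IsIrrCharacter G χ) :
    ∃ ω : B →* ℂˣ, ∀ g (b : B), χ (g * b) = ω b * χ g := by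
  have h1 : ∀ b : B, ∃ c : ℂ, ∀ g, χ (g * b) = c * χ g := fun b => by
    obtain ⟨c, hc⟩ := sum_char_mul' h (w := fun k => if k = b then 1 else 0) fun g x => by
      simp only [mul_inv_eq_iff_eq_mul, ← mem_center_iff.1 (hB b.2) x, mul_right_inj]
    exact ⟨c, fun g => by simpa using hc g⟩
  choose c hc using h1
  obtain ⟨d, d0, hd⟩ := irr_deg h
  have h0 : χ 1 ≠ 0 := by rw [hd]; exact_mod_cast d0.ne'
  refine ⟨MonoidHom.toHomUnits ⟨⟨c, mul_right_cancel₀ h0 (by rw [← hc]; simp)⟩, fun a b =>
    mul_right_cancel₀ h0 ?_⟩, fun g b => hc b g⟩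
  change c (a * b) * _ = c a * c b * _
  rw [← hc, mul_comm (c a), mul_assoc, ← hc, ← hc, mul_assoc, Subgroup.coe_mul]

/-- the degree of an irreducible character divides the index of a central subgroup -/
theorem deg_dvd_index (hB : B ≤ center G) {χ : G → ℂ} (h : IsIrrCharacter G χ) {d : ℤ} (hd : χ 1 = d) :
    d ∣ B.index := by
  obtain ⟨c, hc⟩ := sum_char_mul' h (w := fun g => conj (χ g)) fun g x => by simp only [irr_class h g x]
  obtain ⟨ω, hω⟩ := exists_cen hB h
  obtain ⟨S, hS, -⟩ := B.exists_isComplement_left 1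
  have b0 : (Nat.card B : ℂ) ≠ 0 := by exact_mod_cast Nat.card_pos.ne'
  have hc' : ∀ g, ∑ k : S, conj (χ k) * χ (g * k) = c / Nat.card B * χ g := fun g => by
    rw [div_mul_eq_mul_div, ← hc, eq_div_iff b0, ← hS.sum_comp, Fintype.sum_prod_type, sum_mul]
    refine sum_congr rfl fun s _ => ?_
    rw [sum_congr rfl (g := fun _ => conj (χ s) * χ (g * s)) fun b _ => by
      simp only [SetLike.coe_sort_coe]
      rw [← mul_assoc g, hω, hω, map_mul, hom_conj, mul_mul_mul_comm]; simp]
    simp [mul_comm]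
  have h2 := classInner_irr h h
  rw [if_pos rfl, classInner, inv_mul_eq_one₀ (by exact_mod_cast Nat.card_pos.ne')] at h2
  have h3 := hc 1
  simp only [one_mul, mul_comm (conj _), ← h2, hd] at h3
  refine H9.SZ.dvd_of_integral (y := c / Nat.card B) ?_ (by
    rw [← mul_div_assoc, mul_comm, ← h3, ← B.card_mul_index]; push_cast; field_simp)
  generalize c / Nat.card B = c at hc'
  let R := integralClosure ℤ ℂ
  obtain ⟨e, e0, he⟩ := irr_deg h
  refine isIntegral_trans (A := R) c (isIntegral_of_smul_mem_submodule (Submodule.span R (Set.range χ))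
    (fun h0 => ?_) (Submodule.fg_span (Set.finite_range χ)) c fun n hn => ?_)
  · have := (Submodule.span_eq_bot.1 h0) _ ⟨1, rfl⟩
    rw [he] at this; exact e0.ne' (by exact_mod_cast this)
  induction hn using Submodule.span_induction with
  | mem x hx =>
    obtain ⟨g, rfl⟩ := hx
    rw [smul_eq_mul, ← hc']
    exact Submodule.sum_mem _ fun k _ => Submodule.smul_mem _
      (⟨_, irr_integral (irr_conj h) k⟩ : R) (Submodule.subset_span ⟨_, rfl⟩)
  | zero => simp
  | add x y _ _ hx hy => rw [smul_add]; exact add_mem hx hy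
  | smul a x _ hx => rw [smul_comm]; exact Submodule.smul_mem _ _ hx

/-- irreducible characters over `ν` -/
abbrev IO (ν : B →* ℂˣ) : Type u := {ψ : IrrCharacter G // ∀ g (b : B), ψ.1 (g * b) = ν b * ψ.1 g}

theorem proj (hB : B ≤ center G) (ν : B →* ℂˣ) {φ : G → ℂ} (hφ : IsClassFunction G φ) (g : G) :
    ∑ ψ : IO ν, classInner φ ψ.1.1 * ψ.1.1 g = classInner (fun b : B => φ (g * b)) fun b => ν b := by
  choose ω hω using fun ψ : IrrCharacter G => exists_cen hB ψ.2
  have : (fun b : B => φ (g * b)) = fun b => ∑ ψ : IrrCharacter G,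
      ((classInner φ ψ.1 * ψ.1 g) • fun b => (ω ψ b : ℂ)) b := funext fun b => by
    rw [expand hφ]; exact sum_congr rfl fun ψ _ => by simp only [hω, Pi.smul_apply, smul_eq_mul]; ring
  rw [this, classInner_sum_left]
  simp only [classInner_smul_left, classInner_hom, mul_ite, mul_one, mul_zero]
  rw [← sum_filter]
  refine (sum_subtype _ (fun ψ => ?_) fun ψ : IrrCharacter G => classInner φ ψ.1 * ψ.1 g).symm
  simp only [mem_filter, mem_univ, true_and]
  refine ⟨fun e => e ▸ hω ψ, fun e => MonoidHom.ext fun b => Units.ext ?_⟩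
  obtain ⟨d, d0, hd⟩ := irr_deg ψ.2
  exact mul_right_cancel₀ (by rw [hd]; exact_mod_cast d0.ne') ((hω ψ 1 b).symm.trans (e 1 b))

theorem exists_coefO (hB : B ≤ center G) (ν : B →* ℂˣ) {V : Type*} [AddCommGroup V] [Module ℂ V]
    [FiniteDimensional ℂ V] (ρ : Representation ℂ G V)
    (h : ∀ g (b : B), ρ.character (g * b) = ν b * ρ.character g) :
    ∃ a : IO ν → ℕ, (∀ χ, classInner ρ.character χ.1.1 = a χ) ∧
      ∀ g, ρ.character g = ∑ χ, (a χ : ℂ) * χ.1.1 g := by
  obtain ⟨a, a1, -⟩ := S5.exists_coef ρ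
  refine ⟨fun χ => a χ.1, fun χ => a1 χ.1, fun g => ?_⟩
  simp only [← a1]
  rw [proj hB ν (fun g x => ρ.char_conj g x), show (fun b : B => ρ.character (g * b)) =
    ρ.character g • fun b => (ν b : ℂ) from funext fun b => by simp [h, mul_comm], classInner_smul_left,
    classInner_hom, if_pos rfl, mul_one]

/-- `T` is abelian and self-centralising up to the central subgroup `B` -/
structure LocB (T B : Subgroup G) : Prop where
  comm : ∀ a ∈ T, ∀ b ∈ T, a * b = b * a
  cen : B ≤ center G
  cop : (Nat.card T).Coprime (Nat.card B)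
  cent : ∀ a ∈ T, a ≠ 1 → centralizer {a} ≤ T ⊔ B

namespace LocB

variable (h : LocB T B)
include h

theorem isComm : IsMulCommutative T := ⟨⟨fun a b => Subtype.ext (h.comm a a.2 b b.2)⟩⟩

theorem normal : B.Normal := ⟨fun b hb g => by
  rwa [mem_center_iff.1 (h.cen hb) g, mul_inv_cancel_right]⟩

theorem one {a b : G} (ha : a ∈ T) (hb : b ∈ B) (e : (a * b) ^ Nat.card T = 1) : b = 1 := by
  rw [(show Commute a b from mem_center_iff.1 (h.cen hb) a).mul_pow,
    orderOf_dvd_iff_pow_eq_one.1 (T.orderOf_dvd_natCard ha), one_mul] at e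
  exact orderOf_eq_one_iff.1 (Nat.eq_one_of_dvd_coprimes h.cop (orderOf_dvd_of_pow_eq_one e)
    (B.orderOf_dvd_natCard hb))

theorem comm' {g a : G} (hg : g ∈ T ⊔ B) (ha : a ∈ T) : g * a = a * g := by
  have := h.normal
  obtain ⟨x, hx, b, hb, rfl⟩ := mem_sup_of_normal_right.1 hg
  rw [mul_assoc, ← mem_center_iff.1 (h.cen hb) a, ← mul_assoc, h.comm x hx a ha, mul_assoc]

theorem mem_norm {a u : G} (ha : a ∈ T) (h1 : a ≠ 1) (hu : u⁻¹ * a * u ∈ T) :
    u ∈ normalizer (T : Set G) := by
  refine mem_normalizer_fintype fun b hb => ?_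
  have := h.normal
  obtain ⟨x, hx, c, hc, e⟩ := mem_sup_of_normal_right.1 (h.cent a ha h1 (x := u * b * u⁻¹)
    (mem_centralizer_singleton_iff.2 (by
      have := h.comm b hb _ hu
      calc u * b * u⁻¹ * a = u * (b * (u⁻¹ * a * u)) * u⁻¹ := by group
        _ = _ := by rw [this]; group)))
  rwa [← e, h.one hx hc (by rw [e, conj_pow, orderOf_dvd_iff_pow_eq_one.1 (T.orderOf_dvd_natCard hb)]; simp),
    mul_one]

theorem act_eq_self {l : T →* ℂˣ} (hl : l ≠ 1) (n : normalizer (T : Set G)) :
    act n l = l ↔ (n : G) ∈ T ⊔ B := by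
  constructor
  · intro e
    by_contra hn
    have h1 : Function.Injective fun a : T => n⁻¹ • a * a⁻¹ := fun a b e => by
      have e1 : (n : G)⁻¹ * a * n * (a : G)⁻¹ = (n : G)⁻¹ * b * n * (b : G)⁻¹ := by
        simpa [coe_smul_norm] using congrArg Subtype.val e
      by_contra hab
      refine hn (h.cent ((b : G)⁻¹ * a) (mul_mem (inv_mem b.2) a.2)
        (fun e => hab (Subtype.ext (inv_mul_eq_one.1 e).symm)) (mem_centralizer_singleton_iff.2 ?_))
      calc (n : G) * ((b : G)⁻¹ * a) = (b : G)⁻¹ * n * ((n : G)⁻¹ * b * n * (b : G)⁻¹) * a := by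
            group
        _ = _ := by rw [← e1]; group
    refine hl (MonoidHom.ext fun b => ?_)
    obtain ⟨a, rfl⟩ := Finite.injective_iff_surjective.1 h1 b
    simp only [map_mul, ← act_apply, e, map_inv, mul_inv_cancel, MonoidHom.one_apply]
  · intro hn
    ext a
    rw [act_apply]
    congr 2
    apply Subtype.ext
    simp only [coe_smul_norm, InvMemClass.coe_inv, inv_inv]
    rw [h.comm' (inv_mem hn) a.2, inv_mul_cancel_right]

theorem cnt_self {l : T →* ℂˣ} (hl : l ≠ 1) : cnt l l = Nat.card T * Nat.card B := by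
  have := h.normal
  have le : T ⊔ B ≤ normalizer (T : Set G) := sup_le le_normalizer (h.cen.trans (center_le_normalizer _))
  have e : Nat.card (T ⊔ B : Subgroup G) = Nat.card T * Nat.card B := by
    rw [← relIndex_bot_left, ← relIndex_mul_relIndex ⊥ B _ bot_le le_sup_right, relIndex_sup_right,
      ← inf_relIndex_right B T, inf_eq_bot_of_coprime h.cop.symm, relIndex_bot_left, relIndex_bot_left,
      mul_comm]
  rw [cnt, ← e, ← Nat.card_congr (subgroupOfEquivOfLe le).toEquiv,
    Nat.card_eq_fintype_card, Fintype.card_subtype]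
  congr 1
  ext n
  simp [h.act_eq_self hl, mem_subgroupOf]

theorem indFun_apply {θ : T → ℂ} (h1 : θ 1 = 0) (a : T) :
    indFun T θ a = (Nat.card T : ℂ)⁻¹ * ∑ n : normalizer (T : Set G), θ (n⁻¹ • a) := by
  rw [indFun]
  congr 1
  by_cases ha : a = 1
  · simp [ha, h1, extendByZero_mem T θ (one_mem T), show (⟨1, one_mem T⟩ : T) = 1 from rfl]
  have : ∀ x : G, extendByZero T θ (x⁻¹ * a * x) =
      extendByZero (normalizer (T : Set G)) (fun n => θ (n⁻¹ • a)) x * 1 := fun x => by
    by_cases hx : x ∈ normalizer (T : Set G)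
    · rw [extendByZero_mem _ _ hx, extendByZero_mem _ _ ((mem_normalizer_iff''.1 hx _).1 a.2),
        mul_one]
      congr 1
      exact Subtype.ext (by simp [coe_smul_norm])
    · rw [extendByZero_not_mem _ _ hx, extendByZero_not_mem _ _ fun e =>
        hx (h.mem_norm a.2 (fun e => ha (Subtype.ext e)) e), zero_mul]
  simp only [this, sum_extendByZero _ _ fun _ => 1]
  simp

theorem indFun_zero (θ : T → ℂ) (a : T) {b : B} (hb : b ≠ 1) : indFun T θ (a * b) = 0 := by
  rw [indFun, sum_eq_zero fun x _ => extendByZero_not_mem _ _ fun e => hb (Subtype.ext (h.one a.2 b.2 ?_)),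
    mul_zero]
  have := orderOf_dvd_iff_pow_eq_one.1 (T.orderOf_dvd_natCard e)
  rwa [← inv_inv x, inv_inv x⁻¹, conj_pow, conj_eq_one_iff] at this

theorem exists_mult (ψ : IrrCharacter G) : ∃ m : (T →* ℂˣ) → ℕ,
    (∀ a : T, ψ.1 a = ∑ l, m l * (l a : ℂ)) ∧
      ∀ l : T →* ℂˣ, classInner (fun a => (l a : ℂ)) (fun a : T => ψ.1 a) = m l := by
  obtain ⟨_, n, τ, -, rfl⟩ := ψ
  have := h.isComm
  obtain ⟨m, hm⟩ := H4.CA.exists_mult (G := T) (τ.comp T.subtype)
  refine ⟨m, hm, fun l => ?_⟩
  have : (fun a : T => τ.character a) = fun a => ∑ k, ((m k : ℂ) • fun a => (k a : ℂ)) a :=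
    funext hm
  rw [this, classInner_conj, classInner_sum_left, sum_eq_single l]
  · simp [classInner_smul_left, classInner_hom]
  · intro k _ hk
    simp [classInner_smul_left, classInner_hom, hk]
  · simp

theorem card_dual : Fintype.card (T →* ℂˣ) = Nat.card T := by
  have := h.isComm
  rw [← Nat.card_eq_fintype_card]
  open scoped IsMulCommutative in
  exact CommGroup.card_monoidHom_of_hasEnoughRootsOfUnity T ℂ

theorem key (ν : B →* ℂˣ) (l k l' : T →* ℂˣ) :
    ∑ ψ : IO ν, classInner (df l k) (fun a : T => ψ.1.1 a) *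
      classInner (fun a : T => ψ.1.1 a) (fun a => (l' a : ℂ)) =
      ((Nat.card T * Nat.card B : ℕ) : ℂ)⁻¹ * (cnt l l' - cnt k l') := by
  have key : ∀ l : T →* ℂˣ, classInner (fun a => ∑ n : normalizer (T : Set G), (act n l a : ℂ))
      (fun a => (l' a : ℂ)) = cnt l l' := fun l => by
    rw [classInner_sum_left, cnt_symm]
    simp only [classInner_hom, cnt]
    rw [sum_boole]
  have : (fun a : T => ∑ ψ : IO ν, (classInner (df l k) (fun a : T => ψ.1.1 a) • fun a : T => ψ.1.1 a) a) =
      ((Nat.card T * Nat.card B : ℕ) : ℂ)⁻¹ •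
      ((fun a => ∑ n : normalizer (T : Set G), (act n l a : ℂ)) -
        fun a => ∑ n : normalizer (T : Set G), (act n k a : ℂ)) := by
    funext a
    simp only [Pi.smul_apply, smul_eq_mul, ← classInner_indFun _ _ (irr_class (Subtype.prop _))]
    rw [proj h.cen ν (indFun_class _ _), classInner, sum_eq_single 1
      (fun b _ hb => by rw [h.indFun_zero _ a hb, zero_mul]) (by simp), OneMemClass.coe_one, mul_one,
      h.indFun_apply (df_one _ _)]
    simp [df, act_apply, mul_assoc]
  simp only [← classInner_smul_left]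
  rw [← classInner_sum_left, this, classInner_smul_left, classInner_sub_left, key, key]

end LocB

end Cfsg.Agent.H6.U5
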