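import Cfsg.Agent.H4.U5.X2
import Cfsg.Agent.H4.U5.X3
import Cfsg.Agent.H1.U5Num

/-! Constituents of a character which is almost regular on a subgroup with automizer five. -/

set_option autoImplicit false
set_option linter.unusedSectionVars false

namespace Cfsg.Agent.H6.U5

open Cfsg Finset H1 H2 H4.CA Subgroup
open scoped ComplexConjugate Classical

universe u

variable {G : Type u} [Group G] [Fintype G] {T B : Subgroup G}

theorem inner_resO {ν : B →* ℂˣ} {φ : G → ℂ} {a : IO ν → ℕ} (h : ∀ g, φ g = ∑ χ, (a χ : ℂ) * χ.1.1 g)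
    (θ : T → ℂ) : classInner θ (fun x : T => φ x) = ∑ χ, a χ * classInner θ fun x : T => χ.1.1 x := by
  simp only [h, classInner, map_sum, map_mul, map_natCast, mul_sum]
  rw [sum_comm]
  exact sum_congr rfl fun _ _ => sum_congr rfl fun _ _ => by ring

theorem LocB.exists_XE (h : LocB T B)
    (hN : Nat.card (normalizer (T : Set G)) = 5 * Nat.card T * Nat.card B) (ht : 41 ≤ Nat.card T)
    (hK : ∀ K : Subgroup G, K.Normal → T ≤ K → K = ⊤) (ν : B →* ℂˣ) :
    ∃ D : XE (IO ν) (T →* ℂˣ), D.e = 1 ∧ (∀ ψ, ψ.1.1 1 = D.d ψ) ∧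
      (∀ ψ l, classInner (fun a => (l a : ℂ)) (fun a : T => ψ.1.1 a) = D.m l ψ) ∧
      (∀ ψ (a : T), ψ.1.1 a = ∑ l, D.m l ψ * (l a : ℂ)) ∧
      (∀ ψ, (∀ l, l ≠ D.e → D.m l ψ = 0) → ψ.1.1 = fun _ => 1) := by
  choose d hd0 hd using fun ψ : IrrCharacter G => irr_deg ψ.2
  choose m hm1 hm2 using fun ψ => h.exists_mult ψ
  have hdv : ∀ l k : T →* ℂˣ, Nat.card T * Nat.card B ∣ cnt l k := fun l k => by
    rcases cnt_cases l k with e | e <;> rw [e]
    · simp
    · by_cases hl : l = 1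
      · rw [hl, cnt_one_one, hN, mul_assoc]; simp
      · rw [h.cnt_self hl]
  choose c hc using hdv
  have ha : 0 < Nat.card T * Nat.card B := Nat.mul_pos Nat.card_pos Nat.card_pos
  have hself : ∀ l : T →* ℂˣ, l ≠ 1 → c l l = 1 := fun l hl =>
    Nat.eq_of_mul_eq_mul_left ha (by rw [← hc, h.cnt_self hl, mul_one])
  have hzero : ∀ l k : T →* ℂˣ, cnt l k = 0 → c l k = 0 := fun l k e =>
    Nat.eq_of_mul_eq_mul_left ha (by rw [← hc, e, mul_zero])
  refine ⟨
    { d := fun ψ => d ψ.1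
      d_pos := fun ψ => by exact_mod_cast hd0 ψ.1
      e := 1
      c := fun l k => c l k
      m := fun l ψ => m ψ.1 l
      big := h.card_dual ▸ ht
      c_e' := fun l hl => by rw [hzero _ _ (cnt_one hl)]; rfl
      c_symm := fun l k => congrArg Nat.cast (Nat.eq_of_mul_eq_mul_left ha (by rw [← hc, cnt_symm, hc]))
      c_self := fun l hl => by rw [hself l hl]; rfl
      c_cases := fun l k hl => by
        rcases cnt_cases l k with e | e
        · exact .inl (by rw [hzero _ _ e]; rfl)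
        · rw [hc, hc, hself l hl] at e
          exact .inr (by rw [Nat.eq_of_mul_eq_mul_left ha e]; rfl)
      c_card := fun l => by
        have := sum_cnt l
        simp only [hc, hN, ← mul_sum] at this
        exact_mod_cast Nat.eq_of_mul_eq_mul_left ha (this.trans (by ring))
      inner' := fun l k l' => by
        have := h.key ν l k l'
        rw [hc, hc, Nat.cast_mul _ (c _ _), Nat.cast_mul _ (c _ _), ← mul_sub,
          inv_mul_cancel_left₀ (by exact_mod_cast ha.ne')] at this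
        simp only [df, classInner_sub_left, hm2, classInner_conj (fun a : T => (_ : G → ℂ) a),
          map_natCast] at this
        exact_mod_cast this
      m_nonneg := fun l ψ => Nat.cast_nonneg _
      sum_m := fun ψ => by
        have := hm1 ψ.1 1
        simp only [OneMemClass.coe_one, hd, map_one, Units.val_one, mul_one] at this
        exact_mod_cast this.symm }, rfl, fun ψ => by simp [hd], fun ψ l => by simp [hm2],
    fun ψ a => by simp [hm1], fun ψ e => S5.eq_one_of_ker hK ψ.1.2 fun a => ?_⟩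
  have : ∀ a : T, ψ.1.1 a = m ψ.1 1 := fun a => by
    rw [hm1, sum_eq_single 1 (fun l _ hl => by simp [Nat.cast_eq_zero.1 (e l hl)]) (by simp)]; simp
  rw [this, ← this 1]; rfl

theorem LocB.triv (h : LocB T B)
    (hN : Nat.card (normalizer (T : Set G)) = 5 * Nat.card T * Nat.card B) (ht : 41 ≤ Nat.card T)
    (hK : ∀ K : Subgroup G, K.Normal → T ≤ K → K = ⊤) (ν : B →* ℂˣ) :
    ∃ D : XE (IO ν) (T →* ℂˣ), D.e = 1 ∧ (∀ ψ, ψ.1.1 1 = D.d ψ) ∧
      (∀ ψ l, classInner (fun a => (l a : ℂ)) (fun a : T => ψ.1.1 a) = D.m l ψ) ∧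
      D.Triv fun ψ => ψ.1.1 = fun _ => 1 := by
  obtain ⟨D, e, hd, hm, hm1, ker⟩ := h.exists_XE hN ht hK ν
  obtain ⟨E, e', hd', hm', -, ker'⟩ := h.exists_XE hN ht hK 1
  refine ⟨D, e, hd, hm, ker, fun ψ χ h1 h2 => Subtype.ext (Subtype.ext (h1.trans h2.symm)),
    fun ψ h1 => ?_, fun ψ hψ => by_contra fun h0 => ?_⟩
  · have : ∀ l, (D.m l ψ : ℂ) = if l = 1 then 1 else 0 := fun l => by
      rw [← hm, ← classInner_hom l 1, h1]; rfl
    exact ⟨by exact_mod_cast (this _).trans (if_pos e),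
      fun l hl => by exact_mod_cast (this l).trans (if_neg (e ▸ hl))⟩
  obtain ⟨l, ε, hl, hε, h1, h2⟩ := D.types hψ
  replace h0 : D.m D.e ψ = 0 := by have := D.m_nonneg D.e ψ; omega
  obtain rfl : ε = 1 := by have := D.d_pos ψ; rw [h0] at h2; rw [sq_eq_one_iff] at hε; omega
  rw [h0, zero_mul, zero_add, mul_one] at h2
  have h4 : ∑ l, D.m l ψ ^ 2 = 5 := by
    rw [← D.c_card l]
    refine sum_congr rfl fun j _ => ?_
    by_cases e : j = D.e
    · simp [e, h0, D.c_e' l hl]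
    · rcases D.c_cases l j hl with f | f <;> simp [h1 j e, f, h0]
  have i := classInner_irr ψ.1.2 ψ.1.2
  have iv := fun g => IsIrr.inv ψ.1.2 g
  have h3 : classInner (fun a : T => ∑ k, ((D.m k ψ : ℂ) • fun a => (k a : ℂ)) a)
      (fun a : T => ψ.1.1 a) = ∑ l, (D.m l ψ : ℂ) ^ 2 := by
    rw [classInner_sum_left]
    simp only [classInner_smul_left, hm, pow_two]
  simp only [Pi.smul_apply, smul_eq_mul, ← hm1] at h3
  obtain ⟨k, ρ, -, hρ⟩ := ψ.1.2
  obtain ⟨b, b1, b2⟩ := exists_coefO h.cen 1 (ρ.linHom ρ) fun g b => by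
    simp only [Representation.char_linHom, hρ, iv, ψ.2, map_mul, hom_conj]
    rw [mul_mul_mul_comm]; simp
  let o : IO (1 : B →* ℂˣ) := ⟨⟨_, isIrr_one G⟩, by simp⟩
  have c1 : (b o : ℤ) = 1 := by
    have := b1 o
    simp only [classInner, Representation.char_linHom, hρ, map_one, mul_one, iv, if_true,
      mul_comm (conj _), o] at this i
    exact_mod_cast this.symm.trans i
  have c2 : ∑ χ, b χ * E.d χ = 25 := by
    have := b2 1
    simp only [Representation.char_linHom, hρ, inv_one, hd, hd', h2] at this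
    exact_mod_cast this.symm
  have c3 : ∑ χ, b χ * E.m E.e χ = 5 := by
    have := inner_resO b2 (T := T) fun a => ((1 : T →* ℂˣ) a : ℂ)
    simp only [hm'] at this
    simp only [classInner, Representation.char_linHom, hρ, iv, MonoidHom.one_apply, Units.val_one,
      one_mul, map_mul, Complex.conj_conj] at this h3
    rw [e', ← h4]
    exact_mod_cast this.symm.trans h3
  obtain ⟨χ, d1, d2⟩ : ∃ χ, χ ≠ o ∧ b χ * E.m E.e χ ≠ 0 := by
    by_contra! hh
    have := hm' o 1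
    rw [show (fun a : T => o.1.1 a) = fun a => ((1 : T →* ℂˣ) a : ℂ) from rfl, classInner_hom, if_pos rfl,
      ← e'] at this
    rw [sum_eq_single o (fun χ _ e => hh χ e) (by simp), c1, show E.m E.e o = 1 by exact_mod_cast this.symm]
      at c3
    omega
  have d3 : (1 : ℤ) ≤ b χ := by have := left_ne_zero_of_mul d2; omega
  have d4 : 1 ≤ E.m E.e χ := by have := E.m_nonneg E.e χ; have := right_ne_zero_of_mul d2; omega
  have d5 := S5.sum_sub_le (fun χ => b χ * E.d χ) (fun i => mul_nonneg (Nat.cast_nonneg _) (E.d_pos i).le) {χ}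
  rw [sum_singleton, c2] at d5
  have d6 : E.d χ ≤ 25 := by nlinarith [E.d_pos χ]
  have hb : (41 : ℤ) ≤ Fintype.card (T →* ℂˣ) := by exact_mod_cast E.big
  by_cases c : E.Cst χ
  · obtain ⟨k, hk, -⟩ := E.exists_new ∅ (by simp) (by simp)
    have := (E.m_nonneg k χ).lt_of_ne fun e => d1 (Subtype.ext (Subtype.ext
      (ker' χ fun l hl => by rw [c l k hl hk, e])))
    nlinarith [c.deg hk]
  · obtain ⟨l, ε, -, f1, -, f2⟩ := E.types c
    rcases sq_eq_one_iff.1 f1 with rfl | rfl <;> nlinarith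

theorem CH0 (h : LocB T B) (hN : Nat.card (normalizer (T : Set G)) = 5 * Nat.card T * Nat.card B)
    {t d : ℕ} (hT : Nat.card T = t) (ht : 41 ≤ t) (hK : ∀ K : Subgroup G, K.Normal → T ≤ K → K = ⊤)
    (hd : d = 1 ∨ d = 5) {N : ℤ} (hL : (Nat.card G * d : ℤ) ∣ N * Nat.card B)
    (num : (∀ g x : ℤ, 1 ≤ g → g ≤ d → (x = 1 ∨ x = 2) → ¬ (g = d ∧ x = 1) → ¬ g * t - x ∣ N) ∨
      (d = 5 ∧ t = 41 ∧ N = N4 * 5))
    {W : Type*} [AddCommGroup W] [Module ℂ W] [FiniteDimensional ℂ W] (ρ : Representation ℂ G W)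
    (ν : B →* ℂˣ) (hν : ∀ b : B, ρ b = (ν b : ℂ) • 1) {δ : ℕ} (hδ : δ = 0 ∨ δ = 1 ∧ ν = 1)
    (h1 : ∀ a ∈ T, a ≠ 1 → ρ.character a = -δ) (h2 : ρ.character 1 = d * t - δ) :
    IsIrrCharacter G ρ.character ∨
      (δ = 0 ∧ ∃ ψ, IsIrrCharacter G ψ ∧ ψ ≠ 1 ∧ ρ.character = 1 + ψ) ∨
      (δ = 0 ∧ d = 5 ∧ ((∃ ψ, IsIrrCharacter G ψ ∧ ψ 1 = t) ∨ ∃ ψ ψ', IsIrrCharacter G ψ ∧
        IsIrrCharacter G ψ' ∧ ψ 1 = 2 * t ∧ ψ' 1 = 3 * t ∧ ρ.character = ψ + ψ')) := by
  subst hT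
  obtain ⟨D, e, hd', hm, tr⟩ := h.triv hN ht hK ν
  obtain ⟨a, -, a2⟩ := exists_coefO h.cen ν ρ fun g b => by
    simp [Representation.character, hν]
  have t0 : (Nat.card T : ℂ) ≠ 0 := by exact_mod_cast Nat.card_pos.ne'
  have s : ∀ {R : Type} [CommRing R] (f : IO ν → R),
      ∑ j : Σ χ, Fin (a χ), f j.1 = ∑ χ, a χ * f χ := fun f => by simp [Fintype.sum_sigma]
  have m : ∀ l, ∑ j : Σ χ, Fin (a χ), D.m l j.1 = d - if l = 1 then δ else 0 := fun l => by
    have := inner_resO a2 (T := T) fun a => (l a : ℂ)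
    have e : (fun x : T => ρ.character x) = (fun x => if x = 1 then (d * Nat.card T : ℂ) else 0) -
        (δ : ℂ) • fun x => ((1 : T →* ℂˣ) x : ℂ) := funext fun x => by
      by_cases hx : x = 1
      · simp [hx, h2]
      · simp [hx, h1 x x.2 fun e => hx (Subtype.ext e)]
    rw [e, classInner_sub_right, classInner_conj _ (_ • _), classInner_smul_left, classInner_hom,
      classInner, sum_eq_single 1 (fun x _ hx => by simp [hx]) (by simp)] at this
    simp only [hm, if_true, map_one, Units.val_one, one_mul, map_mul, map_natCast, mul_comm (d : ℂ),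
      inv_mul_cancel_left₀ t0, eq_comm (b := l)] at this
    rw [s]
    split_ifs at this ⊢ <;> simp only [map_one, map_zero, mul_one, mul_zero] at this <;>
      exact_mod_cast this.symm
  have dv : ∀ ψ, D.d ψ * d ∣ N := fun ψ => by
    refine (mul_dvd_mul_right (deg_dvd_index h.cen ψ.1.2 (hd' ψ)) _).trans
      ((mul_dvd_mul_iff_left (a := (Nat.card B : ℤ)) (by exact_mod_cast Nat.card_pos.ne')).1 ?_)
    rwa [← mul_assoc, ← Nat.cast_mul, B.card_mul_index, mul_comm _ N]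
  have z : ∀ g, ρ.character g = ∑ j : Σ χ, Fin (a χ), j.1.1.1 g := fun g => by
    rw [a2, s fun χ => χ.1.1 g]
  rcases tr.main (J := Σ χ, Fin (a χ)) Sigma.fst (n := d) (δ := δ) (by omega)
    (hδ.imp (by omega) fun e => ⟨by omega, ⟨⟨_, isIrr_one G⟩, by simp [e.2]⟩, rfl⟩)
    (fun l hl => by rw [m, if_neg (e ▸ hl)]; simp) (by rw [m, if_pos e])
    (num.imp (fun num ψ g x g1 g2 hx f => by_contra fun n => num g x g1 g2 hx n
        (by rw [← h.card_dual, ← f]; exact (dvd_mul_right _ _).trans (dv ψ)))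
      fun ⟨f1, f2, f3⟩ => ⟨by omega, h.card_dual.trans f2, fun ψ =>
        (mul_dvd_mul_iff_right (c := 5) (by decide)).1 (by have := dv ψ; rwa [f1, f3] at this)⟩)
    with ⟨j, f⟩ | ⟨f, i, j, f1, f2, f3, f4⟩ | ⟨f, f', f1⟩
  · exact .inl (by rw [funext z, f]; simpa using j.1.1.2)
  · exact .inr (.inl ⟨by omega, _, j.1.1.2, f3, funext fun g => by rw [z, f4, sum_pair f1, f2]; rfl⟩)
  rw [h.card_dual] at f1
  refine .inr (.inr ⟨by omega, by omega, f1.imp (fun ⟨ψ, f⟩ => ⟨_, ψ.1.2, by rw [hd', f]; simp⟩)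
    fun ⟨i, j, f1, f2, f3, f4⟩ => ⟨_, _, i.1.1.2, j.1.1.2, by rw [hd', f2]; simp, by rw [hd', f3]; simp,
      funext fun g => by rw [z, f4, sum_pair f1]; rfl⟩⟩)

theorem CH {L : Type u} [Group L] [Finite L] {T B : Subgroup L} (hT : ∀ a ∈ T, ∀ b ∈ T, a * b = b * a)
    (hB : B ≤ center L) (cop : (Nat.card T).Coprime (Nat.card B))
    (hC : ∀ a ∈ T, a ≠ 1 → centralizer {a} ≤ T ⊔ B)
    (hN : Nat.card (normalizer (T : Set L)) = 5 * Nat.card T * Nat.card B) {q t d : ℕ}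
    (hT' : Nat.card T = t) (hK : ∀ K : Subgroup L, K.Normal → T ≤ K → K = ⊤) (hq : IsPrimePow q)
    (h3 : 3 ≤ q) (ht : d * t * (q + 1) = q ^ 5 + 1) (hd : d = 1 ∨ d = 5 ∧ q % 5 = 4)
    (hL : (Nat.card L * d : ℤ) ∣ ordU q * Nat.card B)
    {W : Type*} [AddCommGroup W] [Module ℂ W] [FiniteDimensional ℂ W] (ρ : Representation ℂ L W)
    (ν : B →* ℂˣ) (hν : ∀ b : B, ρ b = (ν b : ℂ) • 1) {δ : ℕ} (hδ : δ = 0 ∨ δ = 1 ∧ ν = 1)
    (h1 : ∀ a ∈ T, a ≠ 1 → ρ.character a = -δ) (h2 : ρ.character 1 = d * t - δ) :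
    IsIrrCharacter L ρ.character ∨
      (δ = 0 ∧ ∃ ψ, IsIrrCharacter L ψ ∧ ψ ≠ 1 ∧ ρ.character = 1 + ψ) ∨
      (δ = 0 ∧ d = 5 ∧ ((∃ ψ, IsIrrCharacter L ψ ∧ (ψ 1 = t ∨ (q ≠ 4 ∧ ψ 1 = 2 * t))) ∨
        (q = 4 ∧ ∃ ψ ψ', IsIrrCharacter L ψ ∧ IsIrrCharacter L ψ' ∧ ψ 1 = 82 ∧ ψ' 1 = 123 ∧
          ρ.character = ψ + ψ'))) := by
  have := Fintype.ofFinite L
  have t41 : 41 ≤ t := by
    by_contra! lt
    have a : d * t * (q + 1) ≤ d * 40 * (q + 1) := by gcongr; omega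
    have b : ∀ n, n ≤ q → n ^ 4 * q ≤ q ^ 5 := fun n hn => by rw [pow_succ q]; gcongr
    rcases hd with rfl | ⟨rfl, h5⟩
    · have := b 3 h3; omega
    · have := b 4 (by omega); omega
  have t4 : q = 4 → d = 5 → t = 41 := by rintro rfl rfl; omega
  refine (CH0 ⟨hT, hB, cop, hC⟩ hN hT' t41 hK (by omega) hL ?_ ρ ν hν hδ h1 h2).imp_right (.imp_right
    fun ⟨e1, e2, e3⟩ => ⟨e1, e2, ?_⟩)
  · by_cases h4 : q = 4
    · subst h4
      rcases hd with rfl | ⟨rfl, -⟩
      · refine .inl fun g x g1 g2 hx n => ?_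
        obtain rfl : t = 205 := by omega
        obtain rfl : g = 1 := by omega
        obtain rfl : x = 2 := by omega
        decide
      · exact .inr ⟨rfl, t4 rfl rfl, by decide⟩
    · exact .inl fun g x => numU hq h3 h4 ht hd
  rcases e3 with ⟨ψ, f1, f2⟩ | ⟨ψ, ψ', f1, f2, f3, f4, f5⟩
  · exact .inl ⟨ψ, f1, .inl f2⟩
  by_cases h4 : q = 4
  · rw [t4 h4 e2] at f3 f4
    exact .inr ⟨h4, ψ, ψ', f1, f2, f3.trans (by norm_num), f4.trans (by norm_num), f5⟩
  · exact .inl ⟨ψ, f1, .inr ⟨h4, f3⟩⟩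

end Cfsg.Agent.H6.U5
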