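import Mathlib

/-! A degree equation for subgroups of `SU_5(4)` has no solution. -/

set_option autoImplicit false

namespace Cfsg.Agent.H6.U5

/-- `|PSU_5(4)|` -/
def N4 : ℤ := 2 ^ 20 * (3 ^ 2 * (5 ^ 4 * (13 * (17 * 41))))

def LA4 : List ℤ := [-36208640000, -6517555200, -1277952000, -579338240, -522240000, -254592000, -49920000,
  -22630400, -20447232, -18432000, -9945000, -8355840, -4073472, -1638400, -884000, -798720, -720000,
  -326400, -294912, -159120, -64000, -31200, -14144, -12750, -11520, -2500, -1024, -450, -204, -40, 288,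
  780, 1600, 3978, 8160, 18000, 19968, 22100, 40960, 48750, 208896, 248625, 460800, 510000, 565760,
  1048576, 1248000, 2560000, 6364800, 11796480, 13056000, 14483456, 31948800, 35360000, 65536000,
  162938880, 334233600, 737280000, 905216000, 10183680000, 260702208000]

theorem LA4_all : ([248625, -1243125].all fun a : ℤ => LA4.all fun b => LA4.all fun c =>
    N4 % (39 - a - b - c) != 0 || 39 - a - b - c == -5 || 39 - a - b - c == 1) = true := by decide +kernel

/-- the divisors -/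
def dv4 (a b c e f g : ℕ) : ℤ := 2 ^ a * (3 ^ b * (5 ^ c * (13 ^ e * (17 ^ f * 41 ^ g))))

theorem LA4_mem : ((List.range 21).all fun a => (List.range 3).all fun b => (List.range 5).all fun c =>
  (List.range 2).all fun e => (List.range 2).all fun f => (List.range 2).all fun g =>
    [dv4 a b c e f g, -dv4 a b c e f g].all fun z => (z % 41 != 1 || (1 :: LA4).contains z) &&
      (z % 41 != 36 || z % 2 == 0 || z == -5 || z == -1243125)) = true := by
  decide +kernel

theorem exists_dv4 {z : ℤ} (h : z ∣ N4) : ∃ a < 21, ∃ b < 3, ∃ c < 5, ∃ e < 2, ∃ f < 2, ∃ g < 2,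
    z = dv4 a b c e f g ∨ z = -dv4 a b c e f g := by
  have h1 : z.natAbs ∣ 2 ^ 20 * (3 ^ 2 * (5 ^ 4 * (13 ^ 1 * (17 ^ 1 * 41 ^ 1)))) :=
    Int.natAbs_dvd_natAbs.2 h
  obtain ⟨_, _, a1, h2, e1⟩ := (Nat.dvd_mul).1 h1
  obtain ⟨_, _, a2, h3, rfl⟩ := (Nat.dvd_mul).1 h2
  obtain ⟨_, _, a3, h4, rfl⟩ := (Nat.dvd_mul).1 h3
  obtain ⟨_, _, a4, h5, rfl⟩ := (Nat.dvd_mul).1 h4
  obtain ⟨_, _, a5, a6, rfl⟩ := (Nat.dvd_mul).1 h5
  obtain ⟨a, b1, rfl⟩ := (Nat.dvd_prime_pow (by norm_num)).1 a1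
  obtain ⟨b, b2, rfl⟩ := (Nat.dvd_prime_pow (by norm_num)).1 a2
  obtain ⟨c, b3, rfl⟩ := (Nat.dvd_prime_pow (by norm_num)).1 a3
  obtain ⟨e, b4, rfl⟩ := (Nat.dvd_prime_pow (by norm_num)).1 a4
  obtain ⟨f, b5, rfl⟩ := (Nat.dvd_prime_pow (by norm_num)).1 a5
  obtain ⟨g, b6, rfl⟩ := (Nat.dvd_prime_pow (by norm_num)).1 a6
  refine ⟨a, by omega, b, by omega, c, by omega, e, by omega, f, by omega, g, by omega, ?_⟩
  have := Int.natAbs_eq z
  rw [← e1] at this
  simpa [dv4] using this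

/-- admissible terms of the degree equation -/
def Q4 (z : ℤ) : Prop := z ∣ N4 ∧ z ≠ 1 ∧ z ≠ -5 ∧ (z % 41 = 1 ∨ z % 41 = 36)

theorem Q4.mem {z : ℤ} (h : Q4 z) : (z % 41 = 1 → z ∈ LA4) ∧ (z % 41 = 36 → z % 2 = 1 → z = -1243125) := by
  obtain ⟨a, a1, b, b1, c, c1, e, e1, f, f1, g, g1, hz⟩ := exists_dv4 h.1
  have := LA4_mem
  simp only [List.all_eq_true, List.mem_range] at this
  have := this a a1 b b1 c c1 e e1 f f1 g g1 z (by simpa using hz)
  simp only [Bool.and_eq_true, Bool.or_eq_true, bne_iff_ne, List.contains_iff_mem, beq_iff_eq,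
    List.mem_cons] at this
  have h2 := h.2.1
  have h3 := h.2.2.1
  exact ⟨fun e => by tauto, fun e e' => by omega⟩

theorem Q4.core {u a b w : ℤ} (hu : Q4 u) (u2 : u % 2 = 1) (ha : Q4 a) (a1 : a % 41 = 1) (hb : Q4 b)
    (b1 : b % 41 = 1) (hw : Q4 w) : u + a + b + w ≠ 39 := fun e => by
  have := LA4_all
  simp only [List.all_eq_true] at this
  have := this u (by
    rcases hu.2.2.2 with h | h
    · simp [(by decide +kernel : ∀ z ∈ LA4, z % 2 = 1 → z = 248625) u (hu.mem.1 h) u2]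
    · simp [hu.mem.2 h u2]) a (ha.mem.1 a1) b (hb.mem.1 b1)
  rw [show 39 - u - a - b = w by omega] at this
  simp only [Bool.or_eq_true, bne_iff_ne, beq_iff_eq] at this
  rcases this with (h | h) | h
  exacts [h (Int.emod_eq_zero_of_dvd hw.1), hw.2.2.1 h, hw.2.1 h]

theorem Q4.core2 {u a b w : ℤ} (hu : Q4 u) (u2 : u % 2 = 1) (ha : Q4 a) (hb : Q4 b) (hw : Q4 w) :
    u + a + b + w ≠ 39 := fun e => by
  have h1 := hu.2.2.2
  have h2 := ha.2.2.2
  have h3 := hb.2.2.2
  have h4 := hw.2.2.2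
  have := fun x y => hu.core u2 ha x hb y hw
  have := fun x y => hu.core u2 ha x hw y hb
  have := fun x y => hu.core u2 hb x hw y ha
  omega

theorem Q4.ne {u a b w : ℤ} (hu : Q4 u) (ha : Q4 a) (hb : Q4 b) (hw : Q4 w) :
    u + a + b + w ≠ 39 := fun e => by
  have := fun x => hu.core2 x ha hb hw
  have := fun x => ha.core2 x hu hb hw
  have := fun x => hb.core2 x hu ha hw
  have := fun x => hw.core2 x hu ha hb
  omega

end Cfsg.Agent.H6.U5
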