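import Cfsg.Agent.H6.S5.A1

/-! Exceptional characters over a central character, automizer of order five: combinatorics. -/

set_option autoImplicit false
set_option linter.unusedSectionVars false

namespace Cfsg.Agent.H6.U5

open Finset Cfsg.Agent.H6.S5

/-- multiplicities of the linear characters of `T` in the irreducible characters of a block -/
structure XE (I Λ : Type*) [Fintype I] [Fintype Λ] where
  d : I → ℤ
  e : Λ
  c : Λ → Λ → ℤ
  m : Λ → I → ℤ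
  d_pos : ∀ ψ, 0 < d ψ
  big : 41 ≤ Fintype.card Λ
  c_e' : ∀ l, l ≠ e → c l e = 0
  c_symm : ∀ l k, c l k = c k l
  c_self : ∀ l, l ≠ e → c l l = 1
  c_cases : ∀ l k, l ≠ e → c l k = 0 ∨ c l k = 1
  c_card : ∀ l, ∑ k, c l k = 5
  inner' : ∀ l k l', ∑ ψ, (m l ψ - m k ψ) * m l' ψ = c l l' - c k l'
  m_nonneg : ∀ l ψ, 0 ≤ m l ψ
  sum_m : ∀ ψ, ∑ l, m l ψ = d ψ

namespace XE

variable {I Λ : Type*} [Fintype I] [Fintype Λ] [DecidableEq I] [DecidableEq Λ] (D : XE I Λ)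
  {l k l' k' : Λ} {ψ : I}

theorem inner (l k l' k' : Λ) : ∑ ψ, (D.m l ψ - D.m k ψ) * (D.m l' ψ - D.m k' ψ) =
    D.c l l' - D.c l k' - D.c k l' + D.c k k' := by
  simp only [mul_sub, sum_sub_distrib, D.inner']; ring

theorem deg (l k : Λ) : ∑ ψ, D.d ψ * (D.m l ψ - D.m k ψ) = 0 := by
  simp only [← D.sum_m, sum_mul]
  rw [sum_comm]
  simp only [mul_comm (D.m _ _) (_ - _), D.inner', sum_sub_distrib, D.c_card, sub_self]

theorem c_e : D.c D.e D.e = 5 := by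
  rw [← D.c_card D.e, sum_eq_single D.e (fun l _ hl => by rw [D.c_symm, D.c_e' l hl]) (by simp)]

theorem norm (hl : l ≠ D.e) (hk : k ≠ D.e) :
    ∑ ψ, (D.m l ψ - D.m k ψ) * (D.m l ψ - D.m k ψ) = 2 - 2 * D.c l k := by
  rw [D.inner, D.c_self l hl, D.c_self k hk, D.c_symm k l]; ring

theorem m_eq (hl : l ≠ D.e) (h : D.c l k = 1) (ψ : I) : D.m l ψ = D.m k ψ := by
  have hk : k ≠ D.e := by rintro rfl; simp [D.c_e' l hl] at h
  exact sub_eq_zero.1 (zero_off (fun ψ => D.m l ψ - D.m k ψ) ∅ (by simp [D.norm hl hk, h]) (by simp))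

theorem two (hl : l ≠ D.e) (hk : k ≠ D.e) (h : D.m l ψ ≠ D.m k ψ) : D.c l k = 0 ∧
    (D.m l ψ - D.m k ψ) ^ 2 = 1 ∧ ∃ χ, χ ≠ ψ ∧ D.m l χ - D.m k χ = -(D.m l ψ - D.m k ψ) ∧
      ∀ φ, φ ≠ ψ → φ ≠ χ → D.m l φ - D.m k φ = 0 := by
  have c0 := (D.c_cases l k hl).resolve_right fun e => h (D.m_eq hl e ψ)
  have n := D.norm hl hk
  have dg := D.deg l k
  rw [c0] at n
  replace h := sub_ne_zero.2 h
  generalize hf : (fun ψ => D.m l ψ - D.m k ψ) = f
  have hf' : ∀ ψ, D.m l ψ - D.m k ψ = f ψ := congrFun hf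
  simp only [hf'] at *
  obtain ⟨χ, h1, h2⟩ : ∃ χ, χ ≠ ψ ∧ f χ ≠ 0 := by
    by_contra! hh
    rw [sum_eq_single ψ (fun b _ hb => by simp [hh b hb]) (by simp)] at dg
    exact h ((mul_eq_zero.1 dg).resolve_left (D.d_pos ψ).ne')
  have a := sum_sub_le (fun i => f i * f i) (fun i => mul_self_nonneg _) {ψ, χ}
  rw [sum_pair h1.symm] at a
  have a1 := mul_self_pos.2 h
  have a2 := mul_self_pos.2 h2
  have z : ∀ φ, φ ≠ ψ → φ ≠ χ → f φ = 0 := fun φ e e' =>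
    zero_off f {ψ, χ} (by rw [sum_pair h1.symm]; omega) (by simp [e, e'])
  rw [← sum_subset (subset_univ {ψ, χ}) (fun φ _ e => by simp at e; simp [z φ e.1 e.2]),
    sum_pair h1.symm] at dg
  have := D.d_pos ψ
  have := D.d_pos χ
  refine ⟨c0, by nlinarith, χ, h1, ?_, z⟩
  rcases mul_self_eq_one_iff.1 (show f ψ * f ψ = 1 by omega) with e | e <;>
    rcases mul_self_eq_one_iff.1 (show f χ * f χ = 1 by omega) with e' | e' <;>
    simp [e, e'] at dg ⊢ <;> omega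

theorem four (hl : l ≠ D.e) (hk : k ≠ D.e) (hl' : l' ≠ D.e) (hk' : k' ≠ D.e) (h : D.m l ψ ≠ D.m k ψ)
    (e1 : D.m l' ψ = D.m l ψ) (e2 : D.m k' ψ = D.m k ψ) : D.c l l' = 1 ∨ D.c k k' = 1 := by
  by_contra! hh
  obtain ⟨-, a1, χ, a2, a3, a4⟩ := D.two hl hk h
  obtain ⟨-, -, χ', b2, b3, b4⟩ := D.two hl' hk' (ψ := ψ) (by rwa [e1, e2])
  have i := D.inner l k l' k'
  rw [(D.c_cases l l' hl).resolve_right hh.1, (D.c_cases k k' hk).resolve_right hh.2,
    (D.two hl hk' (ψ := ψ) (by rwa [e2])).1, (D.two hk hl' (ψ := ψ) (by rw [e1]; exact h.symm)).1,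
    ← sum_subset (subset_univ {ψ, χ}) (fun φ _ e => by simp at e; simp [a4 φ e.1 e.2]),
    sum_pair a2.symm, a3, e1, e2] at i
  by_cases e : χ = χ'
  · rw [e, b3, e1, e2] at i; nlinarith
  · rw [b4 χ a2 e] at i; nlinarith

theorem exists_new (s : Finset Λ) (hs : ∀ l ∈ s, l ≠ D.e) (h5 : s.card ≤ 7) :
    ∃ k, k ≠ D.e ∧ ∀ l ∈ s, D.c l k = 0 := by
  by_contra! hh
  have h1 : ∑ k ∈ univ.erase D.e, (1 : ℤ) ≤ ∑ k ∈ univ.erase D.e, ∑ l ∈ s, D.c l k :=
    sum_le_sum fun k hk => by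
      obtain ⟨l, hl, e⟩ := hh k (ne_of_mem_erase hk)
      rw [← (D.c_cases l k (hs l hl)).resolve_left e]
      exact single_le_sum (f := fun l => D.c l k)
        (fun l hl => by rcases D.c_cases l k (hs l hl) with e | e <;> simp [e]) hl
  rw [sum_comm, sum_congr rfl fun l hl => (sum_erase _ (D.c_e' l (hs l hl))).trans (D.c_card l)]
    at h1
  have := D.big
  simp [card_erase_of_mem] at h1
  omega

theorem fam (hl : l ≠ D.e) (n : ℕ) (hn : n ≤ 7) : ∃ s : Finset Λ, l ∈ s ∧ s.card = n + 1 ∧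
    (∀ l ∈ s, l ≠ D.e) ∧ ∀ a ∈ s, ∀ b ∈ s, a ≠ b → D.c a b = 0 := by
  induction n with
  | zero => exact ⟨{l}, by simp, by simp, by simpa, by simp⟩
  | succ n ih =>
    obtain ⟨s, h1, h2, h3, h4⟩ := ih (by omega)
    obtain ⟨k, k1, k2⟩ := D.exists_new s h3 (by omega)
    have : k ∉ s := fun e => by simpa [D.c_self k k1] using k2 k e
    refine ⟨insert k s, by simp [h1], by simp [this, h2], by simpa [k1] using h3, ?_⟩
    simp only [mem_insert]
    rintro a (rfl | ha) b (rfl | hb) e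
    exacts [absurd rfl e, D.c_symm _ _ ▸ k2 b hb, k2 a ha, h4 a ha b hb e]

theorem sum_e (f : Λ → ℤ) {g x : ℤ} (h : ∀ l, l ≠ D.e → D.m l ψ = g + f l) (h' : D.m D.e ψ = g + x)
    (f0 : f D.e = 0) : D.d ψ = g * Fintype.card Λ + x + ∑ l, f l := by
  rw [← D.sum_m, ← add_sum_erase _ _ (mem_univ D.e), sum_congr rfl fun l hl => h l (ne_of_mem_erase hl),
    sum_add_distrib, sum_erase _ f0, h', sum_const, card_erase_of_mem (mem_univ _), card_univ, nsmul_eq_mul,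
    Nat.cast_sub (by have := D.big; omega)]
  push_cast; ring

theorem norm_e (hk : k ≠ D.e) : ∑ ψ, (D.m D.e ψ - D.m k ψ) * (D.m D.e ψ - D.m k ψ) = 6 := by
  rw [D.inner, D.c_e, D.c_self k hk, D.c_symm D.e k, D.c_e' k hk]; rfl

/-- the family of exceptional characters -/
theorem family {ε g : ℤ} (hl : l ≠ D.e) (hε : ε ^ 2 = 1)
    (h : ∀ k, k ≠ D.e → D.m k ψ = g + ε * D.c l k) : ∃ (J : Finset Λ) (χ : Λ → I), J.card = 7 ∧
      Set.InjOn χ J ∧ (∀ j ∈ J, j ≠ D.e ∧ D.c l j = 0 ∧ χ j ≠ ψ ∧ D.m l (χ j) ≠ D.m j (χ j) ∧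
        ∀ f : I → ℤ, ∑ φ, f φ * (D.m l φ - D.m j φ) = ε * (f ψ - f (χ j))) ∧
      ∀ a ∈ J, ∀ b ∈ J, a ≠ b → D.c a b = 0 := by
  obtain ⟨s, s1, s2, s3, s4⟩ := D.fam hl 7 le_rfl
  have ε0 : ε ≠ 0 := by rintro rfl; simp at hε
  have v : ∀ j ∈ s.erase l, D.m l ψ - D.m j ψ = ε := fun j hj => by
    rw [h l hl, h j (s3 j (mem_of_mem_erase hj)), D.c_self l hl,
      s4 l s1 j (mem_of_mem_erase hj) (ne_of_mem_erase hj).symm]; ring
  have : Nonempty I := ⟨ψ⟩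
  choose! χ c1 c2 c3 using fun j (hj : j ∈ s.erase l) =>
    (D.two hl (s3 j (mem_of_mem_erase hj)) (ψ := ψ) (sub_ne_zero.1 (by rwa [v j hj]))).2.2
  have sm : ∀ j ∈ s.erase l, ∀ f : I → ℤ, ∑ φ, f φ * (D.m l φ - D.m j φ) = ε * (f ψ - f (χ j)) :=
    fun j hj f => by
      rw [← sum_subset (subset_univ {ψ, χ j}) (fun φ _ e => by simp at e; simp [c3 j hj φ e.1 e.2]),
        sum_pair (c1 j hj).symm, c2 j hj, v j hj]; ring
  refine ⟨s.erase l, χ, by rw [card_erase_of_mem s1, s2], fun a a1 b b1 e => ?_, fun j hj =>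
    ⟨s3 j (mem_of_mem_erase hj), s4 l s1 j (mem_of_mem_erase hj) (ne_of_mem_erase hj).symm, c1 j hj,
      sub_ne_zero.1 (by rw [c2 j hj, v j hj]; simpa), sm j hj⟩,
    fun a ha b hb => s4 a (mem_of_mem_erase ha) b (mem_of_mem_erase hb)⟩
  by_contra ab
  have := (sm b b1 _).symm.trans (D.inner l a l b)
  rw [← e, c2 a a1, v a a1, D.c_self l hl, s4 l s1 b (mem_of_mem_erase b1) (ne_of_mem_erase b1).symm,
    s4 a (mem_of_mem_erase a1) l s1 (ne_of_mem_erase a1),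
    s4 a (mem_of_mem_erase a1) b (mem_of_mem_erase b1) ab] at this
  nlinarith

theorem exc {ε g : ℤ} (hl : l ≠ D.e) (hε : ε ^ 2 = 1) (h : ∀ k, k ≠ D.e → D.m k ψ = g + ε * D.c l k) :
    D.m D.e ψ = g := by
  obtain ⟨J, χ, j1, j2, j3, j4⟩ := D.family hl hε h
  obtain ⟨k, hk⟩ : J.Nonempty := by rw [← card_pos]; omega
  have ε0 : ε ≠ 0 := by rintro rfl; simp at hε
  obtain ⟨k1, kl, -⟩ := j3 k hk
  have x1 : ∀ φ ∈ insert ψ ((J.erase k).image χ), D.m D.e φ - D.m k φ = D.m D.e ψ - g := by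
    have a : D.m k ψ = g := by rw [h k k1, kl]; ring
    simp only [mem_insert, mem_image]
    rintro φ (rfl | ⟨j, hj, rfl⟩)
    · rw [a]
    obtain ⟨i1, i2, -, -, i3⟩ := j3 j (mem_of_mem_erase hj)
    have := (i3 _).symm.trans (D.inner D.e k l j)
    rw [D.c_symm D.e l, D.c_symm D.e j, D.c_e' l hl, D.c_e' j i1, D.c_symm k l, kl, j4 k hk j
      (mem_of_mem_erase hj) (ne_of_mem_erase hj).symm, a] at this
    have := (mul_eq_zero.1 this).resolve_left ε0; linarith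
  have x2 : (insert ψ ((J.erase k).image χ)).card = 7 := by
    rw [card_insert_of_notMem (by
      simp only [mem_image, not_exists, not_and]
      exact fun j hj => (j3 j (mem_of_mem_erase hj)).2.2.1), card_image_of_injOn (j2.mono (by simp)),
      card_erase_of_mem hk, j1]
  by_contra ne
  have ne' := mul_self_pos.2 (sub_ne_zero.2 ne)
  have := sum_sub_le (fun φ => (D.m D.e φ - D.m k φ) * (D.m D.e φ - D.m k φ))
    (fun i => mul_self_nonneg _) (insert ψ ((J.erase k).image χ))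
  rw [D.norm_e k1, sum_congr rfl fun φ hφ => by rw [x1 φ hφ], sum_const, x2, nsmul_eq_mul] at this
  push_cast at this
  omega

/-- all multiplicities of non-trivial characters agree -/
def Cst (ψ : I) : Prop := ∀ l k, l ≠ D.e → k ≠ D.e → D.m l ψ = D.m k ψ

theorem Cst.deg {D : XE I Λ} (h : D.Cst ψ) (hk : k ≠ D.e) :
    D.d ψ = D.m k ψ * Fintype.card Λ + (D.m D.e ψ - D.m k ψ) := by
  simpa using D.sum_e 0 (x := D.m D.e ψ - D.m k ψ) (g := D.m k ψ)
    (fun l hl => by simp [h l k hl hk]) (by ring) rfl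

theorem types (h : ¬ D.Cst ψ) : ∃ l ε, l ≠ D.e ∧ ε ^ 2 = 1 ∧
    (∀ k, k ≠ D.e → D.m k ψ = D.m D.e ψ + ε * D.c l k) ∧
      D.d ψ = D.m D.e ψ * Fintype.card Λ + 5 * ε := by
  simp only [Cst, not_forall] at h
  obtain ⟨l, k, hl, hk, h⟩ := h
  have val : ∀ j, j ≠ D.e → D.m j ψ = D.m l ψ ∨ D.m j ψ = D.m k ψ := fun j hj => by
    by_contra! hh
    have a := (D.two hl hk h).2.1
    have b := (D.two hj hl hh.1).2.1
    have c := (D.two hj hk hh.2).2.1
    rw [sq_eq_one_iff] at a b c; omega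
  wlog H : ∀ j, j ≠ D.e → D.m j ψ = D.m l ψ → D.c l j = 1 generalizing k l
  · push Not at H
    obtain ⟨j, j1, j2, j3⟩ := H
    exact this k l hk hl (Ne.symm h) (fun j hj => (val j hj).symm) fun i i1 i2 =>
      (D.four hl hk j1 i1 h j2 i2).resolve_left j3
  have a := (D.two hl hk h).2.1
  have b : ∀ j, j ≠ D.e → D.m j ψ = D.m k ψ + (D.m l ψ - D.m k ψ) * D.c l j := fun j hj => by
    rcases val j hj with e | e
    · rw [H j hj e, e]; ring
    · rw [(D.two hl hj (by rwa [e])).1, e]; ring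
  have c := D.exc hl a b
  refine ⟨l, _, hl, a, c ▸ b, ?_⟩
  rw [D.sum_e _ (x := 0) b (by simpa) (by simp [D.c_e' l hl]), ← mul_sum, D.c_card l, c]; ring

/-- a character whose restriction is a multiple of the regular character minus `δ` has no exceptional
constituent -/
theorem const (hX : ∀ ψ, ¬ D.Cst ψ → 1 ≤ D.m D.e ψ) (a : I → ℤ) (a0 : ∀ χ, 0 ≤ a χ) {n : ℤ}
    (a2 : ∀ l, l ≠ D.e → ∑ χ, a χ * D.m l χ = n) (a3 : ∑ χ, a χ * D.m D.e χ ≤ 6) (h : 0 < a ψ) :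
    D.Cst ψ := by
  by_contra hc
  obtain ⟨l, ε, hl, hε, h1, -⟩ := D.types hc
  obtain ⟨J, χ, j1, j2, j3, -⟩ := D.family hl hε h1
  have ε0 : ε ≠ 0 := by rintro rfl; simp at hε
  have := card_nsmul_le_sum (J.image χ) (fun χ => a χ * D.m D.e χ) 1 (by
    simp only [mem_image]
    rintro _ ⟨j, hj, rfl⟩
    obtain ⟨i1, -, -, i2, i3⟩ := j3 j hj
    have := i3 a
    simp only [mul_sub, sum_sub_distrib, a2 l hl, a2 j i1, sub_self] at this
    have e : a ψ = a (χ j) := mul_left_cancel₀ ε0 (by linarith)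
    nlinarith [hX (χ j) fun c => i2 (c l j hl i1)])
  have := this.trans (sum_sub_le _ (fun i => mul_nonneg (a0 i) (D.m_nonneg _ i)) _)
  rw [card_image_of_injOn j2, j1] at this
  simp at this
  omega

end XE

end Cfsg.Agent.H6.U5
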