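import Cfsg.Agent.H4.U5.X1
import Cfsg.Agent.H4.U5.N4

/-! Constituents of a character which is almost regular on a subgroup with automizer five. -/

set_option autoImplicit false
set_option linter.unusedSectionVars false

namespace Cfsg.Agent.H6.U5

open Finset Cfsg.Agent.H6.S5

theorem peel4 {I : Type*} [DecidableEq I] (y : I → ℤ) {R : Finset I} {n : ℤ} (h : ∑ i ∈ R, y i * y i = n)
    (hn : 0 < n) : ∃ χ ∈ R, 0 < y χ * y χ ∧ y χ * y χ ≤ n ∧
      ∑ i ∈ R.erase χ, y i * y i = n - y χ * y χ := by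
  obtain ⟨χ, h1, h2⟩ := exists_ne_zero_of_sum_ne_zero (h.trans_ne hn.ne')
  have := add_sum_erase R (fun i => y i * y i) h1
  have := sum_nonneg (s := R.erase χ) fun i _ => mul_self_nonneg (y i)
  exact ⟨χ, h1, (mul_self_nonneg _).lt_of_ne h2.symm, by omega, by omega⟩

theorem zero4 {I : Type*} (d y : I → ℤ) {R : Finset I} (h : ∑ i ∈ R, y i * y i = 0) :
    ∑ i ∈ R, d i * y i = 0 := sum_eq_zero fun i hi => by
  rw [mul_self_eq_zero.1 ((sum_eq_zero_iff_of_nonneg fun i _ => mul_self_nonneg (y i)).1 h i hi), mul_zero]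

theorem last4 {I : Type*} [DecidableEq I] {d : I → ℤ} (y : I → ℤ) {R : Finset I} {N : ℤ} (dv : ∀ i, d i ∣ N)
    (h : ∑ i ∈ R, y i * y i = 1) : ∑ i ∈ R, d i * y i ∣ N := by
  obtain ⟨χ, h1, h2, h3, h4⟩ := peel4 y h one_pos
  rw [← add_sum_erase R _ h1, zero4 d y (by omega), add_zero]
  rcases mul_self_eq_one_iff.1 (show y χ * y χ = 1 by omega) with e | e <;> simp [e, dv]

theorem fin4 {J : Type*} [Fintype J] [DecidableEq J] (G x : J → ℤ) {n δ : ℤ} (hn : n = 1 ∨ n = 5)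
    (G0 : ∀ j, 0 ≤ G j) (sG : ∑ j, G j = n) (sx : ∑ j, x j = -δ) (δ0 : 0 ≤ δ)
    (z : ∀ j, G j = 0 → x j = 1) (ng : ∀ j, x j < 0 → G j = n ∧ x j = -1) :
    (∃ j, univ = ({j} : Finset J)) ∨
      (δ = 0 ∧ ∃ i j, i ≠ j ∧ G i = 0 ∧ G j ≠ 0 ∧ univ = ({i, j} : Finset J)) ∨
      (δ = 0 ∧ n = 5 ∧ (∀ j, x j = 0) ∧ ((∃ j, G j = 1) ∨
        ∃ i j, i ≠ j ∧ G i = 2 ∧ G j = 3 ∧ univ = ({i, j} : Finset J))) := by
  by_cases h : ∃ j, x j < 0
  · obtain ⟨j, hj⟩ := h
    obtain ⟨h1, h2⟩ := ng j hj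
    rw [← add_sum_erase _ _ (mem_univ j)] at sG sx
    have h3 := (sum_eq_zero_iff_of_nonneg fun i _ => G0 i).1 (show ∑ i ∈ univ.erase j, G i = 0 by omega)
    rw [sum_congr rfl fun i hi => z i (h3 i hi), sum_const, nsmul_eq_mul, mul_one] at sx
    rcases (show (univ.erase j).card = 0 ∨ (univ.erase j).card = 1 by omega) with e | e
    · exact .inl ⟨j, by rw [← insert_erase (mem_univ j), card_eq_zero.1 e]; rfl⟩
    · obtain ⟨i, hi⟩ := card_eq_one.1 e
      have h4 : i ∈ univ.erase j := hi ▸ mem_singleton_self i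
      exact .inr (.inl ⟨by omega, i, j, ne_of_mem_erase h4, h3 i h4, by omega, by
        rw [← insert_erase (mem_univ j), hi, pair_comm]⟩)
  push Not at h
  have h1 := sum_nonneg (s := univ) fun j _ => h j
  have h2 := fun j => (sum_eq_zero_iff_of_nonneg fun i _ => h i).1 (show ∑ i, x i = 0 by omega) j (mem_univ j)
  have h3 : ∀ j, 1 ≤ G j := fun j => by have := G0 j; have := z j; have := h2 j; omega
  have h4 : (univ : Finset J).card ≠ 0 := fun e => by rw [card_eq_zero.1 e, sum_empty] at sG; omega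
  by_cases h5 : (univ : Finset J).card = 1
  · exact .inl (card_eq_one.1 h5)
  have h6 := (card_nsmul_le_sum univ G 1 fun j _ => h3 j).trans_eq sG
  rw [nsmul_eq_mul] at h6
  refine .inr (.inr ⟨by omega, by omega, h2, or_iff_not_imp_left.2 fun h7 => ?_⟩)
  have h8 : ∀ j, 2 ≤ G j := fun j => by have := h3 j; have := not_exists.1 h7 j; omega
  have h9 := (card_nsmul_le_sum univ G 2 fun j _ => h8 j).trans_eq sG
  rw [nsmul_eq_mul] at h9
  obtain ⟨i, j, ij, e⟩ := card_eq_two.1 (show (univ : Finset J).card = 2 by omega)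
  rw [e, sum_pair ij] at sG
  have := h8 i
  have := h8 j
  by_cases f : G i = 2
  · exact ⟨i, j, ij, f, by omega, e⟩
  · exact ⟨j, i, ij.symm, by omega, by omega, e.trans (pair_comm _ _)⟩

namespace XE

variable {I Λ : Type*} [Fintype I] [Fintype Λ] [DecidableEq I] [DecidableEq Λ] (D : XE I Λ)
  {l k : Λ} {ψ : I}

/-- `O` singles out the trivial character, if it belongs to the block -/
structure Triv (O : I → Prop) : Prop where
  o1 : ∀ ψ, (∀ l, l ≠ D.e → D.m l ψ = 0) → O ψ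
  o2 : ∀ ψ χ, O ψ → O χ → ψ = χ
  o3 : ∀ ψ, O ψ → D.m D.e ψ = 1 ∧ ∀ l, l ≠ D.e → D.m l ψ = 0
  hX : ∀ ψ, ¬ D.Cst ψ → 1 ≤ D.m D.e ψ

variable {D} {O : I → Prop}

theorem sq_le (hk : k ≠ D.e) (ψ : I) : (D.m D.e ψ - D.m k ψ) * (D.m D.e ψ - D.m k ψ) ≤ 6 := by
  simpa [D.norm_e hk] using sum_sub_le (fun φ => (D.m D.e φ - D.m k φ) * (D.m D.e φ - D.m k φ))
    (fun i => mul_self_nonneg _) {ψ}

theorem Triv.pos (h : D.Triv O) (hk : k ≠ D.e) (c : D.Cst ψ) (o : ¬ O ψ) : 1 ≤ D.m k ψ :=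
  (D.m_nonneg k ψ).lt_of_ne fun e => o (h.o1 ψ fun l hl => by rw [c l k hl hk, e])

theorem Triv.q4 (h : D.Triv O) (t : Fintype.card Λ = 41) (dv : ∀ ψ, D.d ψ ∣ N4) (hk : k ≠ D.e)
    (o : ¬ O ψ) (y : (D.m D.e ψ - D.m k ψ) * (D.m D.e ψ - D.m k ψ) = 1) :
    Q4 (D.d ψ * (D.m D.e ψ - D.m k ψ)) := by
  have y' := mul_self_eq_one_iff.1 y
  refine ⟨by rcases y' with e | e <;> simp [e, dv], ?_⟩
  by_cases c : D.Cst ψ
  · have h1 := c.deg hk
    have h2 := h.pos hk c o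
    rw [t] at h1
    rcases y' with e | e <;> rw [e] at h1 ⊢ <;> omega
  · obtain ⟨l, ε, hl, h1, h2, h3⟩ := D.types c
    have h4 := h.hX ψ c
    have h5 := h2 k hk
    rw [t] at h3
    rcases D.c_cases l k hl with f | f <;> rw [f] at h5 <;> rcases y' with e | e <;> rw [e] <;> omega

theorem Triv.neg4 (h : D.Triv O) (t : Fintype.card Λ = 41) (dv : ∀ ψ, D.d ψ ∣ N4) (hk : k ≠ D.e)
    (c : D.Cst ψ) (y : D.m D.e ψ - D.m k ψ < 0) (g5 : D.m k ψ ≤ 5)
    (H : (∃ o, O o) ∨ ∃ χ, D.Cst χ ∧ ¬ O χ ∧ 0 < D.m D.e χ - D.m k χ ∧ D.m k χ + D.m k ψ ≤ 5) :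
    D.m k ψ = 5 ∧ D.m D.e ψ - D.m k ψ = -1 := by
  by_contra hne
  have n := D.norm_e hk
  have dg := D.deg D.e k
  have q4 := fun ψ => h.q4 (ψ := ψ) t dv hk
  have cd := fun ψ (c : D.Cst ψ) => c.deg hk
  have sq := sq_le hk
  have ps := fun ψ => h.pos (ψ := ψ) hk
  have o3 : ∀ ψ, O ψ → D.d ψ = 1 ∧ D.m D.e ψ - D.m k ψ = 1 := fun ψ o => by
    obtain ⟨o1, o2⟩ := h.o3 ψ o
    rw [cd ψ fun a b ha hb => by rw [o2 a ha, o2 b hb], o1, o2 k hk]; simp
  have g1 : -(D.m D.e ψ - D.m k ψ) ≤ D.m k ψ := by have := D.m_nonneg D.e ψ; omega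
  generalize hf : (fun ψ => D.m D.e ψ - D.m k ψ) = f
  have hf' : ∀ ψ, D.m D.e ψ - D.m k ψ = f ψ := congrFun hf
  simp only [hf', t] at *
  have v : f ψ = -1 ∧ D.d ψ = 40 ∨ f ψ = -2 ∧ (D.d ψ = 39 ∨ D.d ψ = 80) := by
    have h1 := dv ψ
    have h2 : -3 < f ψ := by nlinarith [sq ψ]
    rw [cd ψ c] at h1 ⊢
    generalize f ψ = u at *
    generalize D.m k ψ = g at *
    have : 1 ≤ g := by omega
    interval_cases u <;> interval_cases g <;> first | omega | (revert h1; decide)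
  have key : ∀ χ, 0 < f χ → ∑ i ∈ (univ.erase ψ).erase χ, f i * f i = 6 - f ψ * f ψ - f χ * f χ ∧
      ∑ i ∈ (univ.erase ψ).erase χ, D.d i * f i = -(D.d ψ * f ψ) - D.d χ * f χ := fun χ hχ => by
    have m : χ ∈ univ.erase ψ := mem_erase.2 ⟨by rintro rfl; omega, mem_univ _⟩
    rw [← add_sum_erase _ _ (mem_univ ψ), ← add_sum_erase _ _ m] at n dg
    omega
  rcases H with ⟨o, ho⟩ | ⟨χ, c1, c2, c3, c4⟩
  · obtain ⟨o1, o2⟩ := o3 o ho
    obtain ⟨k1, k2⟩ := key o (by omega)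
    have no : ∀ i ∈ (univ.erase ψ).erase o, ¬ O i := fun i hi e => ne_of_mem_erase hi (h.o2 _ _ e ho)
    generalize (univ.erase ψ).erase o = R at *
    rw [o2] at k1 k2
    rw [o1] at k2
    rcases v with ⟨v1, v2⟩ | ⟨v1, v2⟩ <;> rw [v1] at k1 k2
    · rw [v2] at k2
      obtain ⟨a, a1, a2, a3, a4⟩ := peel4 f k1 (by decide)
      rw [← add_sum_erase _ _ a1] at k2
      by_cases e : f a * f a = 1
      · obtain ⟨b, b1, b2, b3, b4⟩ := peel4 f a4 (by omega)
        have b5 : f b * f b = 1 := by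
          have : -2 < f b := by nlinarith
          have : f b < 2 := by nlinarith
          generalize f b = y at *
          interval_cases y <;> omega
        obtain ⟨c, c1, c2, c3, c4⟩ := peel4 f b4 (by omega)
        have c5 : f c * f c = 1 := by
          have : -2 < f c := by nlinarith
          have : f c < 2 := by nlinarith
          generalize f c = y at *
          interval_cases y <;> omega
        obtain ⟨d, d1, d2, d3, d4⟩ := peel4 f c4 (by omega)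
        rw [← add_sum_erase _ _ b1, ← add_sum_erase _ _ c1, ← add_sum_erase _ _ d1,
          zero4 D.d f (by omega)] at k2
        exact (q4 a (no a a1) e).ne (q4 b (no b (mem_of_mem_erase b1)) b5)
          (q4 c (no c (mem_of_mem_erase (mem_of_mem_erase c1))) c5)
          (q4 d (no d (mem_of_mem_erase (mem_of_mem_erase (mem_of_mem_erase d1)))) (by omega)) (by omega)
      · have : f a = 2 ∨ f a = -2 := by
          have : -3 < f a := by nlinarith
          have : f a < 3 := by nlinarith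
          generalize f a = y at *
          interval_cases y <;> omega
        rcases this with e | e <;> rw [e] at a4 k2 <;> rw [zero4 D.d f (by omega)] at k2 <;> omega
    · have := last4 f dv k1
      rcases v2 with v2 | v2 <;> rw [k2, v2] at this <;> revert this <;> decide
  · obtain ⟨k1, k2⟩ := key χ c3
    have w : f χ = 2 ∧ D.d χ = 125 := by
      have h1 := dv χ
      have h2 : f χ < 3 := by nlinarith [sq χ]
      have h3 := ps χ c1 c2
      have h4 : D.m k χ ≤ 4 := by omega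
      rw [cd χ c1] at h1 ⊢
      generalize f χ = y at *
      generalize D.m k χ = g at *
      interval_cases y <;> interval_cases g <;> first | omega | (revert h1; decide)
    have := sum_nonneg (s := (univ.erase ψ).erase χ) fun i _ => mul_self_nonneg (f i)
    rw [w.1] at k1 k2
    rcases v with ⟨v1, v2⟩ | ⟨v1, v2⟩ <;> rw [v1] at k1 k2
    · have := last4 f dv k1
      rw [k2, v2, w.2] at this
      revert this; decide
    · omega

theorem Triv.main (h : D.Triv O) {J : Type*} [Fintype J] [DecidableEq J] (p : J → I) {n δ : ℤ}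
    (hn : n = 1 ∨ n = 5) (hδ : δ = 0 ∨ δ = 1 ∧ ∃ o, O o)
    (a2 : ∀ l, l ≠ D.e → ∑ j, D.m l (p j) = n) (a3 : ∑ j, D.m D.e (p j) = n - δ)
    (num : (∀ ψ (g x : ℤ), 1 ≤ g → g ≤ n → (x = 1 ∨ x = 2) → D.d ψ = g * Fintype.card Λ - x →
      g = n ∧ x = 1) ∨ (n = 5 ∧ Fintype.card Λ = 41 ∧ ∀ ψ, D.d ψ ∣ N4)) :
    (∃ j, univ = ({j} : Finset J)) ∨
      (δ = 0 ∧ ∃ i j, i ≠ j ∧ O (p i) ∧ ¬ O (p j) ∧ univ = ({i, j} : Finset J)) ∨
      (δ = 0 ∧ n = 5 ∧ ((∃ ψ, D.d ψ = Fintype.card Λ) ∨ ∃ i j, i ≠ j ∧ D.d (p i) = 2 * Fintype.card Λ ∧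
        D.d (p j) = 3 * Fintype.card Λ ∧ univ = ({i, j} : Finset J))) := by
  obtain ⟨k, hk, -⟩ := D.exists_new ∅ (by simp) (by simp)
  have s : ∀ f : I → ℤ, ∑ χ, ((univ.filter fun j => p j = χ).card : ℤ) * f χ = ∑ j, f (p j) := fun f => by
    rw [← sum_fiberwise' univ p f]; simp
  have c : ∀ j, D.Cst (p j) := fun j => D.const h.hX (fun χ => (univ.filter fun j => p j = χ).card)
    (fun _ => Nat.cast_nonneg _) (fun l hl => (s _).trans (a2 l hl)) (by rw [s]; omega)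
    (Nat.cast_pos.2 (card_pos.2 ⟨j, by simp⟩))
  have le := fun S => (sum_sub_le (fun j => D.m k (p j)) (fun j => D.m_nonneg _ _) S).trans_eq (a2 k hk)
  have sx : ∑ j, (D.m D.e (p j) - D.m k (p j)) = -δ := by rw [sum_sub_distrib, a2 k hk, a3]; ring
  have o : ∀ j, D.m k (p j) = 0 ↔ O (p j) := fun j =>
    ⟨fun e => by_contra fun n => by have := h.pos hk (c j) n; omega, fun e => (h.o3 _ e).2 k hk⟩
  rcases fin4 (fun j => D.m k (p j)) (fun j => D.m D.e (p j) - D.m k (p j)) hn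
    (fun j => D.m_nonneg _ _) (a2 k hk) sx (by omega)
    (fun j e => by rw [(h.o3 _ ((o j).1 e)).1, e]; rfl) (fun j hj => by
      have l1 := le {j}
      rw [sum_singleton] at l1
      rcases num with num | ⟨rfl, t, dv⟩
      · have h1 := D.m_nonneg D.e (p j)
        have h2 : -3 < D.m D.e (p j) - D.m k (p j) := by nlinarith [sq_le hk (p j)]
        have := num (p j) (D.m k (p j)) (D.m k (p j) - D.m D.e (p j)) (by omega) l1 (by omega)
          (by rw [(c j).deg hk]; ring)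
        omega
      · refine h.neg4 t dv hk (c j) hj l1 (or_iff_not_imp_left.2 fun no => ?_)
        obtain ⟨i, -, hi⟩ := exists_lt_of_sum_lt (s := univ.erase j) (f := fun _ => 0)
          (g := fun j => D.m D.e (p j) - D.m k (p j)) (by
            rw [← add_sum_erase _ _ (mem_univ j)] at sx
            have := hδ.resolve_right fun e => no e.2
            simp only [sum_const_zero]; omega)
        have l2 := le {i, j}
        rw [sum_pair (by rintro rfl; omega)] at l2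
        exact ⟨p i, c i, fun e => no ⟨_, e⟩, hi, l2⟩)
    with e | ⟨e, i, j, e1, e2, e3, e4⟩ | ⟨e, e', e1, e2⟩
  · exact .inl e
  · exact .inr (.inl ⟨e, i, j, e1, (o i).1 e2, mt (o j).2 e3, e4⟩)
  have dg : ∀ j, D.d (p j) = D.m k (p j) * Fintype.card Λ := fun j => by rw [(c j).deg hk, e1, add_zero]
  refine .inr (.inr ⟨e, e', e2.imp (fun ⟨j, hj⟩ => ⟨p j, by rw [dg, hj, one_mul]⟩)
    fun ⟨i, j, f1, f2, f3, f4⟩ => ⟨i, j, f1, by rw [dg, f2], by rw [dg, f3], f4⟩⟩)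

end XE

end Cfsg.Agent.H6.U5
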